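import Cfsg.Agent.Lib.Helper33.KS.NInst

/-!
# Non-symmetric amalgams: from `b = 1` to the structure of `O₂(Pᵢ)` (helper33)
-/

set_option autoImplicit false
open Cfsg Subgroup MulAction Cfsg.Agent.Lib.Helper47
open Cfsg.Agent.Lib.Helper22 (conjS conjS_mem)
open Cfsg.Agent.Lib.Helper32.KSLocal
open Cfsg.Agent.Lib.Helper32.Am (Cub0)

namespace Cfsg.Agent.Lib.Helper33.KS

section abstract
variable {G : Type*} [Group G] {V : Type*} [MulAction G V]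
  {adj : V → V → Prop} {Q Z : V → Subgroup G}

/-- if `b = 1`, every arc has non-commuting `Z`s. -/
theorem arc_noncomm0 (hC : Cub0 adj Q Z) (h : ¬ Cm adj Z 1) {A B : V} (hAB : adj A B) :
    ∃ a ∈ Z A, ∃ c ∈ Z B, a * c ≠ c * a := by
  unfold Cm at h
  push Not at h
  obtain ⟨f, l, hf, hn⟩ := h
  unfold Cmt at hn
  push Not at hn
  obtain ⟨a, ha, c, hc, hac⟩ := hn
  have hadj : adj (f l) (f (l + ((1 : ℕ) : ℤ))) := by
    have := hf l le_rfl (by simp)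
    simpa using this
  have key : ∀ g : G, g * a * g⁻¹ * (g * c * g⁻¹) ≠ g * c * g⁻¹ * (g * a * g⁻¹) := by
    intro g h
    apply hac
    have : g * (a * c) * g⁻¹ = g * (c * a) * g⁻¹ := by
      calc g * (a * c) * g⁻¹ = g * a * g⁻¹ * (g * c * g⁻¹) := by group
        _ = g * c * g⁻¹ * (g * a * g⁻¹) := h
        _ = g * (c * a) * g⁻¹ := by group
    exact mul_left_cancel (mul_right_cancel this)
  obtain ⟨g, ⟨hgA, hgB⟩ | ⟨hgA, hgB⟩⟩ := hC.etrans hadj hAB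
  · refine ⟨g * a * g⁻¹, ?_, g * c * g⁻¹, ?_, key g⟩
    · rw [← hgA, hC.Z_smul]
      exact conjS_mem ha
    · rw [← hgB, hC.Z_smul]
      exact conjS_mem hc
  · refine ⟨g * c * g⁻¹, ?_, g * a * g⁻¹, ?_, fun h => key g h.symm⟩
    · rw [← hgB, hC.Z_smul]
      exact conjS_mem hc
    · rw [← hgA, hC.Z_smul]
      exact conjS_mem ha

end abstract

variable {G : Type*} [Group G] [Finite G] {P₁ P₂ T : Subgroup G}

/-- the conclusion of the case `b = 1`. -/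
theorem nconcl (h : NHyp P₁ P₂ T)
    (hs : ∀ N : Subgroup G, IsPGroup 2 N → P₁ ≤ normalizer (N : Set G) →
      P₂ ≤ normalizer (N : Set G) → N = ⊥)
    (hn : ¬ Cm (adjN P₁ P₂) (ZN P₁ P₂) 1) :
    (∀ x ∈ pCoreOf 2 P₁, x * x = 1) ∧ (∀ x ∈ pCoreOf 2 P₂, x * x = 1) ∧
    (∀ x ∈ pCoreOf 2 P₁, ∀ y ∈ pCoreOf 2 P₁, x * y = y * x) ∧
    (∀ x ∈ pCoreOf 2 P₂, ∀ y ∈ pCoreOf 2 P₂, x * y = y * x) ∧
    pCoreOf 2 P₁ ⊔ pCoreOf 2 P₂ = T ∧ pCoreOf 2 P₁ ⊓ pCoreOf 2 P₂ = omegaCenterOf T := by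
  have hadj : adjN P₁ P₂ (Sum.inl ((1 : G) : G ⧸ P₁)) (Sum.inr ((1 : G) : G ⧸ P₂)) :=
    ⟨1, rfl, rfl⟩
  obtain ⟨a, ha, c, hc, hac⟩ := arc_noncomm0 (cub0 h) hn hadj
  have ha' : a ∈ Zcan (St G (Sum.inl ((1 : G) : G ⧸ P₁) : VN P₁ P₂)) := ha
  have hc' : c ∈ Zcan (St G (Sum.inr ((1 : G) : G ⧸ P₂) : VN P₁ P₂)) := hc
  rw [St_inl, St_mk, cj_one, h.h1.Zcan_eq] at ha'
  rw [St_inr, St_mk, cj_one, h.h2.Zcan_eq] at hc'
  apply b1 h.h1 h.h2 hs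
  intro hle
  exact hac (h.h2.comm_of_mem_zc hc' (hle ha'))

end Cfsg.Agent.Lib.Helper33.KS
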