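import Cfsg.Agent.Lib.Helper33.KS.Defs2
import Cfsg.Agent.Lib.Helper32.KS.I0
import Cfsg.Agent.Lib.Helper63.KS.P1
import Cfsg.Agent.Lib.Helper63.KS.P2
import Cfsg.Agent.Lib.Helper63.KS.P3
import Cfsg.Agent.Lib.Helper63.KS.P4
import Cfsg.Agent.Lib.Helper99.KS.P5
import Cfsg.Agent.Lib.Helper65.KS.P5p
import Cfsg.Agent.Lib.Helper23.KS.P6
import Cfsg.Agent.Lib.Helper23.KS.P7
import Cfsg.Agent.Lib.Helper99.KS.P8
import Cfsg.Agent.Lib.Helper2.KS.P9a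
import Cfsg.Agent.Lib.Helper2.KS.P9b
import Cfsg.Agent.Lib.Helper2.KS.P9c
import Cfsg.Agent.Lib.Helper2.KS.P9d

/-!
# The symmetric amalgam theorem (assembly; helper33 + farm)
-/

set_option autoImplicit false

namespace Cfsg.Agent.Lib.Helper33.KS

open Subgroup MulAction
open Cfsg.Agent.Lib.Helper22 (conjS)

section abstract
variable {G : Type*} [Group G] {V : Type*} [MulAction G V]
  {adj : V → V → Prop} {Q Z : V → Subgroup G}

theorem cm_zero (hC : Cub adj Q Z) : Cm adj Z 0 := by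
  intro f l _ a ha c hc
  have : f (l + ((0 : ℕ) : ℤ)) = f l := by simp
  rw [this] at hc
  exact hC.Zc _ a ha c hc

theorem not_cm_one (hC : Cub adj Q Z) (A₀ : V) : ¬ Cm adj Z 1 := by
  classical
  intro h1
  obtain ⟨n, hn⟩ := Cfsg.Agent.Lib.Helper63.KS.p1 hC A₀
  have hex : ∃ n, ¬ Cm adj Z n := ⟨n, hn⟩
  set b := Nat.find hex with hbdef
  have hbn : ¬ Cm adj Z b := Nat.find_spec hex
  have hlt : ∀ m < b, Cm adj Z m := fun m hm => by
    by_contra h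
    exact Nat.find_min hex hm h
  have hb0 : b ≠ 0 := fun h => hbn (h ▸ cm_zero hC)
  have hb1 : b ≠ 1 := fun h => hbn (h ▸ h1)
  have hb : MinB adj Z b := ⟨by omega, hlt, hbn⟩
  have h2 := Cfsg.Agent.Lib.Helper63.KS.p2 hC hlt
  have h3 := Cfsg.Agent.Lib.Helper63.KS.p3 hC hb h2
  have h4 := Cfsg.Agent.Lib.Helper63.KS.p4 hC
  have h5 := Cfsg.Agent.Lib.Helper99.KS.p5 hC hb h2 h3 h4
  have h5' := Cfsg.Agent.Lib.Helper65.KS.p5' hC h5
  have h6 := Cfsg.Agent.Lib.Helper23.KS.p6 hC hb h2 h3 h4 h5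
  have h7 := Cfsg.Agent.Lib.Helper23.KS.p7 hC h4
  have hb3 := Cfsg.Agent.Lib.Helper99.KS.p8 hC hb h2 h3 h4 h5' h6 h7
  have hb2 : b = 2 := by omega
  rw [hb2] at hb h2 h3
  exact Cfsg.Agent.Lib.Helper2.KS.p9d hC A₀ h2 h4 (Cfsg.Agent.Lib.Helper2.KS.p9a hC h4 h6)
    (Cfsg.Agent.Lib.Helper2.KS.p9c hC h2 h3 h4 h7 (Cfsg.Agent.Lib.Helper2.KS.p9b hC hb))

/-- every arc has non-commuting `Z`s. -/
theorem arc_noncomm (hC : Cub adj Q Z) {A B : V} (hAB : adj A B) :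
    ∃ a ∈ Z A, ∃ c ∈ Z B, a * c ≠ c * a := by
  have h := not_cm_one hC A
  unfold Cm at h
  push Not at h
  obtain ⟨f, l, hf, hn⟩ := h
  unfold Cmt at hn
  push Not at hn
  obtain ⟨a, ha, c, hc, hac⟩ := hn
  have hadj : adj (f l) (f (l + ((1 : ℕ) : ℤ))) := by
    have := hf l le_rfl (by simp)
    simpa using this
  obtain ⟨g, hgA, hgB⟩ := hC.trans hadj hAB
  refine ⟨g * a * g⁻¹, ?_, g * c * g⁻¹, ?_, ?_⟩
  · rw [← hgA, hC.Z_smul]
    exact Cfsg.Agent.Lib.Helper22.conjS_mem ha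
  · rw [← hgB, hC.Z_smul]
    exact Cfsg.Agent.Lib.Helper22.conjS_mem hc
  · intro h
    apply hac
    have : g * (a * c) * g⁻¹ = g * (c * a) * g⁻¹ := by
      calc g * (a * c) * g⁻¹ = g * a * g⁻¹ * (g * c * g⁻¹) := by group
        _ = g * c * g⁻¹ * (g * a * g⁻¹) := h
        _ = g * (c * a) * g⁻¹ := by group
    exact mul_left_cancel (mul_right_cancel this)

end abstract

section inst
variable {G : Type*} [Group G]

/-- **The symmetric amalgam theorem.** -/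
theorem symAmalgam [Finite G] {P T : Subgroup G} {s : G} (h : Hyp P T s) : Concl P T s := by
  have hC := Cfsg.Agent.Lib.Helper32.KS.cub h (Cfsg.Agent.Lib.Helper32.KS.l1 h)
    (Cfsg.Agent.Lib.Helper32.KS.l2 h)
  have hadj : adjI P s ((1 : G) : G ⧸ P) ((s : G) : G ⧸ P) := ⟨1, rfl, by simp⟩
  obtain ⟨a, ha, c, hc, hac⟩ := arc_noncomm hC hadj
  rw [Cfsg.Agent.Lib.Helper32.KS.ZI_mk] at ha hc
  refine Cfsg.Agent.Lib.Helper32.KS.b_one h ⟨a, ?_, c, hc, hac⟩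
  rwa [Cfsg.Agent.Lib.Helper22.conjS_one] at ha

end inst

end Cfsg.Agent.Lib.Helper33.KS
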